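import Mathlib
import Cfsg.Agent.H19.Tr1
import Cfsg.Agent.H11.UField

/-! Auxiliary algebra: the field with four elements, an orientation lemma, an extension lemma. -/

set_option autoImplicit false
set_option linter.unusedSectionVars false
set_option linter.unusedVariables false
set_option linter.style.haveILetI false

namespace Cfsg.Agent.H21.FS

open Cfsg Cfsg.Agent.H19

theorem z2c (a : ZMod 2) : a = 0 ∨ a = 1 := by revert a; decide

theorem z2s (a : ZMod 2) : a + a = 0 := by revert a; decide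

/-- a cocycle on the non-commuting graph which vanishes on triangles is a coboundary -/
theorem orient {G : Type*} [Group G] {M : Set G} (h : T3 M) (cl : Cl M)
    (nb : ∀ a ∈ M, ∀ d ∈ M, ∃ n ∈ M, ¬ Commute a n ∧ ¬ Commute n d) (ε : G → G → ZMod 2)
    (sy : ∀ a ∈ M, ∀ b ∈ M, ¬ Commute a b → ε a b = ε b a)
    (tri : ∀ a ∈ M, ∀ b ∈ M, ∀ c ∈ M, ¬ Commute a b → ¬ Commute b c → ¬ Commute a c →
      ε a c = ε a b + ε b c) :
    ∃ η : G → ZMod 2, ∀ a ∈ M, ∀ b ∈ M, ¬ Commute a b → ε a b = η a + η b := by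
  rcases M.eq_empty_or_nonempty with rfl | ⟨a, ha⟩
  · exact ⟨0, by simp⟩
  have ns : ∀ {p q : G}, ¬ Commute p q → ¬ Commute q p := fun n c => n c.symm
  have sq : ∀ d ∈ M, ∀ n ∈ M, ∀ w ∈ M, ¬ Commute a n → ¬ Commute n d → ¬ Commute a w → ¬ Commute w d →
      ¬ Commute n w → ε a n + ε n d = ε a w + ε w d := fun d hd n hn w hw an nd aw wd nw => by
    rw [tri a ha n hn w hw an nw aw, tri n hn w hw d hd nw wd nd]
    ring
  have wd : ∀ d ∈ M, ∀ n ∈ M, ∀ w ∈ M, ¬ Commute a n → ¬ Commute n d → ¬ Commute a w → ¬ Commute w d →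
      ε a n + ε n d = ε a w + ε w d := fun d hd n hn w hw an nd aw wd => by
    by_cases ad : Commute a d
    swap
    · rw [← tri a ha n hn d hd an nd ad, ← tri a ha w hw d hd aw wd ad]
    by_cases nw : Commute n w
    swap
    · exact sq d hd n hn w hw an nd aw wd nw
    have hz := cl a ha n hn
    have z1 := h.not_commute_J_left an
    have z2 := h.not_commute_J_right ha hn an
    have z3 : ¬ Commute (J a n) d := fun c => nd ((commute_J_of ad).1 c)
    have z4 : ¬ Commute w (J a n) := fun c => aw (h.commute_of_J ha hn an nw.symm c).symm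
    rw [sq d hd n hn _ hz an nd z1 z3 z2, sq d hd w hw _ hz aw wd z1 z3 z4]
  choose! n hn an nd using nb a ha
  have e : ∀ d ∈ M, ∀ w ∈ M, ¬ Commute a w → ¬ Commute w d →
      ε a (n d) + ε (n d) d = ε a w + ε w d :=
    fun d hd w hw => wd d hd _ (hn d hd) w hw (an d hd) (nd d hd)
  have e1 : ∀ d ∈ M, ∀ e' ∈ M, ¬ Commute d e' → ¬ Commute a d →
      ε d e' = ε a (n d) + ε (n d) d + (ε a (n e') + ε (n e') e') := fun d hd e' he de ad => by
    rw [← tri a ha _ (hn d hd) d hd (an d hd) (nd d hd) ad, e e' he d hd ad de, ← add_assoc, z2s,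
      zero_add]
  have e2 : ∀ d ∈ M, ∀ e' ∈ M, ¬ Commute d e' → ∀ w ∈ M, ¬ Commute a w → ¬ Commute w d →
      ¬ Commute w e' → ε d e' = ε a (n d) + ε (n d) d + (ε a (n e') + ε (n e') e') :=
    fun d hd e' he de w hw aw wd we => by
      rw [e d hd w hw aw wd, e e' he w hw aw we, tri d hd w hw e' he (ns wd) we de, sy d hd w hw (ns wd)]
      linear_combination -z2s (ε a w)
  refine ⟨fun d => ε a (n d) + ε (n d) d, fun d hd e' he de => ?_⟩
  by_cases ad : Commute a d
  swap
  · exact e1 d hd e' he de ad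
  by_cases ae : Commute a e'
  swap
  · rw [sy d hd e' he de, e1 e' he d hd (ns de) ae, add_comm]
  by_cases ne : Commute (n d) e'
  swap
  · exact e2 d hd e' he de _ (hn d hd) (an d hd) (nd d hd) ne
  refine e2 d hd e' he de _ (cl _ (hn d hd) d hd)
    (fun c => an d hd (h.commute_of_J (hn d hd) hd (nd d hd) ad c))
    (ns (h.not_commute_J_right (hn d hd) hd (nd d hd))) fun c => de ((commute_J_of ne).1 c)

/-- a map on singular vectors additive on singular lines extends to an additive map -/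
theorem ext_lin {U A : Type*} [AddCommGroup U] [AddCommGroup A] (hU : ∀ u : U, u + u = 0)
    (hA : ∀ a : A, a + a = 0) (N : U → ZMod 2) (B : U → U → ZMod 2)
    (hB : ∀ u v w, B (u + v) w = B u w + B v w)
    (hN : ∀ u v, N (u + v) = N u + N v + B u v) (δ : U → A)
    (hδ : ∀ u v, N u = 0 → N v = 0 → N (u + v) = 0 → δ (u + v) = δ u + δ v) {p p' r r' : U}
    (n1 : N p = 0) (n2 : N p' = 0) (n3 : N r = 0) (n4 : N r' = 0) (b1 : B p p' = 1) (b2 : B r r' = 1)
    (b3 : B r p = 0) (b4 : B r p' = 0) (b5 : B r' p = 0) (b6 : B r' p' = 0) :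
    ∃ S : U → A, (∀ u v, S (u + v) = S u + S v) ∧ ∀ u, N u = 0 → S u = δ u := by
  letI := AddCommGroup.zmodModule (G := U) (n := 2) fun a => by rw [two_nsmul, hU]
  letI := AddCommGroup.zmodModule (G := A) (n := 2) fun a => by rw [two_nsmul, hA]
  have sy : ∀ u v, B u v = B v u := fun u v => by
    have := hN u v
    rw [add_comm, hN] at this
    linear_combination -this
  have hB' : ∀ u v w, B w (u + v) = B w u + B w v := fun u v w => by rw [sy, hB, sy u, sy v]
  have B0 : ∀ w, B 0 w = 0 := fun w => by simpa using hB 0 0 w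
  have N0 : N 0 = 0 := by simpa [B0] using hN 0 0
  have Bs : ∀ u, B u u = 0 := fun u => by
    have := hN u u
    rw [hU, N0, z2s, zero_add] at this
    exact this.symm
  have Bm : ∀ (c : ZMod 2) u w, B (c • u) w = c * B u w := fun c u w => by
    rcases z2c c with rfl | rfl <;> simp [B0]
  have Bm' : ∀ (c : ZMod 2) u w, B w (c • u) = c * B w u := fun c u w => by rw [sy, Bm, sy]
  have Nm : ∀ (c : ZMod 2) u, N (c • u) = c * N u := fun c u => by
    rcases z2c c with rfl | rfl <;> simp [N0]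
  have d0 : δ 0 = 0 := by simpa using hδ 0 0 N0 N0 (by simpa using N0)
  have b1' : B p' p = 1 := sy p p' ▸ b1
  let μ : U → A := fun w => δ (w + N w • p + p') + N w • δ p + δ p'
  have dp : ∀ w (c : ZMod 2), B w p = 0 → N w = 0 → δ (w + c • p) = δ w + c • δ p := fun w c k1 k2 => by
    rcases z2c c with rfl | rfl
    · simp
    · rw [one_smul, one_smul, hδ w p k2 n1 (by rw [hN, k1, k2, n1]; simp)]
  have m0 : ∀ w, B w p' = 0 → N w = 0 → μ w = δ w := fun w k1 k2 => by
    simp only [μ, k2, zero_smul, add_zero]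
    rw [hδ w p' k2 n2 (by rw [hN, k1, k2, n2]; simp), add_assoc, hA, add_zero]
  have sg : ∀ w, B w p = 0 → B w p' = 0 → N (w + N w • p + p') = 0 := fun w k1 k2 => by
    simp only [hN, hB, Bm, Bm', Nm, k1, k2, n1, n2, b1]
    linear_combination z2s (N w)
  have a1 : ∀ w w', B w p = 0 → B w p' = 0 → B w' p = 0 → B w' p' = 0 → N (w + w') = 0 →
      μ (w + w') = μ w + μ w' := fun w w' k1 k2 k3 k4 k5 => by
    have e : w + N w • p + p' + (w' + N w' • p + p') = w + w' + (N w + N w') • p := by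
      rw [add_smul]; linear_combination (norm := abel) hU p'
    have k6 : B (w + w') p = 0 := by rw [hB, k1, k3, add_zero]
    have := hδ _ _ (sg w k1 k2) (sg w' k3 k4) (by rw [e, hN, Nm, Bm', k5, n1, k6]; simp)
    rw [e, dp _ _ k6 k5, add_smul] at this
    rw [m0 _ (by rw [hB, k2, k4, add_zero]) k5]
    simp only [μ]
    linear_combination (norm := abel) this - hA (N w • δ p) - hA (N w' • δ p) - hA (δ p')
  have a2 : ∀ w w', B w p = 0 → B w p' = 0 → B w' p = 0 → B w' p' = 0 → N w' = 0 →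
      μ (w + w') = μ w + μ w' := fun w w' k1 k2 k3 k4 k5 => by
    have e : w + w' + w = w' := by linear_combination (norm := abel) hU w
    have := a1 (w + w') w (by rw [hB, k1, k3, add_zero]) (by rw [hB, k2, k4, add_zero]) k1 k2
      (by rw [e, k5])
    rw [e] at this
    linear_combination (norm := abel) -this - hA (μ w)
  have a3 : ∀ w w' s, B w p = 0 → B w p' = 0 → B w' p = 0 → B w' p' = 0 → B s p = 0 → B s p' = 0 →
      N s = 0 → N (w + s) = 0 → μ (w + w') = μ w + μ w' := fun w w' s k1 k2 k3 k4 k5 k6 k7 k8 => by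
    have j1 : B (w + s) p = 0 := by rw [hB, k1, k5, add_zero]
    have j2 : B (w + s) p' = 0 := by rw [hB, k2, k6, add_zero]
    have e1 := a2 w' (w + s) k3 k4 j1 j2 k8
    have e2 := a2 w s k1 k2 k5 k6 k7
    have e3 := a2 (w + w') s (by rw [hB, k1, k3, add_zero]) (by rw [hB, k2, k4, add_zero]) k5 k6 k7
    rw [show w + w' + s = w' + (w + s) by abel, e1, e2] at e3
    linear_combination (norm := abel) -e3
  have a4 : ∀ w w', B w p = 0 → B w p' = 0 → B w' p = 0 → B w' p' = 0 →
      μ (w + w') = μ w + μ w' := fun w w' k1 k2 k3 k4 => by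
    rcases z2c (N w') with c1 | c1
    · exact a2 w w' k1 k2 k3 k4 c1
    rcases z2c (N w) with c2 | c2
    · rw [add_comm, a2 w' w k3 k4 k1 k2 c2, add_comm]
    rcases z2c (N (w + w')) with c3 | c3
    · exact a1 w w' k1 k2 k3 k4 c3
    have t : ∀ w s, N w = 1 → N s = 0 → B w s = 1 → N (w + s) = 0 := fun w s a b c => by
      rw [hN, a, b, c]; decide
    rcases z2c (B w r) with c4 | c4
    swap
    · exact a3 w w' r k1 k2 k3 k4 b3 b4 n3 (t _ _ c2 n3 c4)
    rcases z2c (B w r') with c5 | c5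
    swap
    · exact a3 w w' r' k1 k2 k3 k4 b5 b6 n4 (t _ _ c2 n4 c5)
    rcases z2c (B w' r) with c6 | c6
    swap
    · rw [add_comm, a3 w' w r k3 k4 k1 k2 b3 b4 n3 (t _ _ c1 n3 c6), add_comm]
    rcases z2c (B w' r') with c7 | c7
    swap
    · rw [add_comm, a3 w' w r' k3 k4 k1 k2 b5 b6 n4 (t _ _ c1 n4 c7), add_comm]
    have c8 : B w w' = 1 := by
      rw [hN, c1, c2, z2s, zero_add] at c3; exact c3
    have c9 : N (w' + r + r') = 0 := by
      simp only [hN, hB, c1, n3, n4, c6, c7, b2]; decide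
    exact a3 w w' (w' + r + r') k1 k2 k3 k4 (by simp [hB, k3, b3, b5]) (by simp [hB, k4, b4, b6]) c9
      (t _ _ c2 c9 (by simp [hB', c8, c4, c5]))
  let pr : U → U := fun u => u + B u p' • p + B u p • p'
  have p1 : ∀ u, B (pr u) p = 0 := fun u => by simp [pr, hB, Bm, Bs, b1', z2s]
  have p2 : ∀ u, B (pr u) p' = 0 := fun u => by simp [pr, hB, Bm, Bs, b1, z2s]
  refine ⟨fun u => μ (pr u) + B u p' • δ p + B u p • δ p', fun u v => ?_, fun u hu => ?_⟩
  · have : pr (u + v) = pr u + pr v := by simp only [pr, hB, add_smul]; abel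
    simp only [this, a4 _ _ (p1 u) (p2 u) (p1 v) (p2 v), hB, add_smul]
    abel
  have e : u = pr u + B u p' • p + B u p • p' := by
    simp only [pr]
    linear_combination (norm := abel) -hU (B u p' • p) - hU (B u p • p')
  have k : N (pr u) = B u p' * B u p := by
    rw [e] at hu
    simp only [hN, hB, Bm, Bm', Nm, p1, p2, n1, n2, b1] at hu
    linear_combination hu - z2s (B u p' * B u p)
  rcases z2c (B u p) with c | c
  · rw [c, mul_zero] at k
    rw [c, zero_smul, add_zero] at e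
    simp only [c, zero_smul, add_zero]
    rw [m0 _ (p2 u) k, ← dp _ _ (p1 u) k, ← e]
  · rw [c, mul_one] at k
    rw [c, one_smul] at e
    simp only [μ, k, c, one_smul, ← e]
    linear_combination (norm := abel) hA (B u p' • δ p) + hA (δ p')

/-- the field with four elements -/
structure F4 {F : Type*} [Field F] (σ : F →+* F) (ω : F) : Prop where
  two : (2 : F) = 0
  w : ω * ω = ω + 1
  four : ∀ x : F, x ^ 4 = x
  eq : ∀ x, σ x = x ^ 2
  card : Nat.card F = 4

theorem exists_F4 {F : Type*} [Field F] [Fintype F] (hF : Fintype.card F = 2 ^ 2) :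
    ∃ ω, F4 (H11.conjQ hF) ω := by
  classical
  have four : ∀ x : F, x ^ 4 = x := fun x => by simpa [hF] using FiniteField.pow_card x
  have two : (2 : F) = 0 := by
    have := FiniteField.cast_card_eq_zero F
    rw [hF, Nat.cast_pow, Nat.cast_ofNat] at this
    exact pow_eq_zero_iff (n := 2) (by simp) |>.1 this
  obtain ⟨ω, hω⟩ : ∃ ω : F, ω ∉ ({0, 1} : Finset F) := by
    by_contra k
    push Not at k
    have := Finset.card_le_card (show Finset.univ ⊆ ({0, 1} : Finset F) from fun x _ => k x)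
    have h2 := Finset.card_le_two (a := (0 : F)) (b := 1)
    rw [Finset.card_univ] at this
    omega
  simp only [Finset.mem_insert, Finset.mem_singleton, not_or] at hω
  refine ⟨ω, two, ?_, four, fun _ => rfl, by rw [Nat.card_eq_fintype_card, hF]; rfl⟩
  refine mul_left_cancel₀ (mul_ne_zero hω.1 (sub_ne_zero.2 hω.2)) ?_
  linear_combination four ω - (ω ^ 3 - ω) * two

section
variable {F : Type*} [Field F] {σ : F →+* F} {ω : F}

/-- the identity or the conjugation -/
def sg (σ : F →+* F) (i : ZMod 2) (a : F) : F := if i = 0 then a else σ a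

/-- a linear or semilinear bijection -/
def Ty (σ : F →+* F) (φ : F → F) (i : ZMod 2) : Prop := ∃ α, α ≠ 0 ∧ ∀ a, φ a = α * sg σ i a

@[simp] theorem sg_zero (a : F) : sg σ 0 a = a := if_pos rfl

@[simp] theorem sg_one (a : F) : sg σ 1 a = σ a := if_neg (by decide)

theorem sg_mul (i : ZMod 2) (a b : F) : sg σ i (a * b) = sg σ i a * sg σ i b := by
  rcases z2c i with rfl | rfl <;> simp

theorem sg_eq_zero {i : ZMod 2} {a : F} : sg σ i a = 0 ↔ a = 0 := by
  rcases z2c i with rfl | rfl <;> simp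

namespace F4
variable (f : F4 σ ω)
include f

theorem add_self (a : F) : a + a = 0 := by linear_combination a * f.two

theorem invol (a : F) : σ (σ a) = a := by rw [f.eq, f.eq, ← pow_mul, f.four]

theorem cube {a : F} (ha : a ≠ 0) : a ^ 3 = 1 := mul_left_cancel₀ ha (by linear_combination f.four a)

theorem nm {a : F} (ha : a ≠ 0) : σ a * a = 1 := by rw [f.eq]; linear_combination f.cube ha

theorem w0 : ω ≠ 0 := fun e => by simpa [e] using f.w

theorem w1 : ω ≠ 1 := fun e => by
  have := f.w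
  rw [e, mul_one, one_add_one_eq_two, f.two] at this
  exact one_ne_zero this

theorem sw : σ ω = ω + 1 := by rw [f.eq, sq, f.w]

theorem cases (a : F) : a = 0 ∨ a = 1 ∨ a = ω ∨ a = ω + 1 := by
  have : a * ((a - 1) * ((a - ω) * (a - (ω + 1)))) = 0 := by
    linear_combination f.four a + (a ^ 2 - a) * f.w +
      (-a ^ 3 * ω - a ^ 3 + 2 * a ^ 2 * ω + a ^ 2 - a * ω) * f.two
  simpa [sub_eq_zero] using this

theorem real {a : F} (ha : σ a = a) : a = 0 ∨ a = 1 := by
  have : a * (a - 1) = 0 := by rw [f.eq] at ha; linear_combination ha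
  simpa [sub_eq_zero] using this

theorem tr_real (a : F) : σ (a + σ a) = a + σ a := by rw [map_add, f.invol, add_comm]

theorem nm_real (a : F) : σ (σ a * a) = σ a * a := by rw [map_mul, f.invol, mul_comm]

theorem third {a s c : F} (ha : a ≠ 0) (hs : s ≠ 0) (hc : c ≠ 0) (as : a ≠ s) (ca : c ≠ a)
    (cs : c ≠ s) : c = a + s := by
  have e1 : a ^ 2 + a * s + s ^ 2 = 0 :=
    mul_left_cancel₀ (sub_ne_zero.2 as) (by linear_combination f.cube ha - f.cube hs)
  have e2 : a ^ 2 + a * c + c ^ 2 = 0 :=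
    mul_left_cancel₀ (sub_ne_zero.2 ca) (by linear_combination f.cube hc - f.cube ha)
  exact mul_left_cancel₀ (sub_ne_zero.2 cs) (by linear_combination e2 - e1 - (c - s) * (a + s) * f.two)

theorem transl {π : F → F} (h1 : ∀ a, π (π a) = a) (h2 : ∀ a, π a ≠ a) (a : F) : π a = a + π 0 := by
  by_cases e : a = 0
  · simp [e]
  by_cases e2 : a = π 0
  · rw [e2, h1, f.add_self]
  exact f.third e (h2 0) (fun k => e2 (by rw [← k, h1])) e2 (h2 a)
    fun k => e (by rw [← h1 a, k, h1])

theorem tr_eq_one {a s : F} (ha : a ≠ 0) (hs : s ≠ 0) (as : a ≠ s) : σ a * s + σ (σ a * s) = 1 := by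
  refine (f.real (f.tr_real _)).resolve_left fun k => ?_
  rcases f.real (a := σ a * s) (by linear_combination k - f.add_self (σ a * s)) with e | e
  · exact mul_ne_zero (by simpa) hs e
  · exact as (mul_left_cancel₀ (show σ a ≠ 0 by simpa) (by rw [e, f.nm ha]))

theorem eq_of_tr {a : F} (h1 : a + σ a = 0) (h2 : ω * a + σ (ω * a) = 0) : a = 0 := by
  rw [map_mul, f.sw] at h2
  linear_combination h2 - (ω + 1) * h1 + f.add_self a

theorem sg_sg (i j : ZMod 2) (a : F) : sg σ i (sg σ j a) = sg σ (i + j) a := by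
  rcases z2c i with rfl | rfl <;> rcases z2c j with rfl | rfl <;> simp [f.invol, z2s]

theorem ty_exists {φ : F → F} (h1 : ∀ a b, φ (a + b) = φ a + φ b) (h2 : ∀ a, φ a = 0 → a = 0) :
    ∃ i, Ty σ φ i := by
  have z : φ 0 = 0 := by simpa using h1 0 0
  have n1 : φ 1 ≠ 0 := fun k => one_ne_zero (h2 1 k)
  obtain ⟨c, hc⟩ : ∃ c, φ ω = φ 1 * c := ⟨φ ω / φ 1, by field_simp⟩
  rcases f.cases c with rfl | rfl | rfl | rfl
  · exact absurd (h2 ω (by simpa using hc)) f.w0
  · exact absurd (h2 (ω + 1) (by rw [h1, hc, mul_one, f.add_self]))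
      fun k => f.w1 (by linear_combination k - f.two)
  · refine ⟨0, φ 1, n1, fun a => ?_⟩
    rcases f.cases a with rfl | rfl | rfl | rfl <;> simp [z, h1, hc, mul_add]
  · refine ⟨1, φ 1, n1, fun a => ?_⟩
    rcases f.cases a with rfl | rfl | rfl | rfl <;> simp [z, h1, hc, mul_add, f.sw]

theorem ty_comp {φ ψ : F → F} {i j : ZMod 2} (a : Ty σ φ i) (b : Ty σ ψ j) :
    Ty σ (fun c => φ (ψ c)) (i + j) := by
  obtain ⟨α, hα, a⟩ := a
  obtain ⟨β, hβ, b⟩ := b
  exact ⟨α * sg σ i β, mul_ne_zero hα (mt sg_eq_zero.1 hβ), fun c => by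
    simp only [a, b, sg_mul, f.sg_sg, mul_assoc]⟩

theorem ty_eq {φ ψ : F → F} {i j : ZMod 2} (a : Ty σ φ i) (b : Ty σ ψ j)
    (h : (∀ c, φ c + ψ c = 0) ∨ ∀ c, φ c + ψ c = 0 → c = 0) : i = j := by
  have key : ∀ {φ ψ : F → F}, Ty σ φ 0 → Ty σ ψ 1 →
      ((∀ c, φ c + ψ c = 0) ∨ ∀ c, φ c + ψ c = 0 → c = 0) → False := by
    rintro φ ψ ⟨α, hα, a⟩ ⟨β, hβ, b⟩ (h | h)
    · have e1 := h 1
      have e2 := h ω
      simp only [a, b, sg_zero, sg_one, map_one, f.sw] at e1 e2
      exact hβ (by linear_combination e2 - ω * e1)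
    · refine div_ne_zero hα hβ (h _ ?_)
      simp only [a, b, sg_zero, sg_one, f.eq]
      field_simp
      linear_combination α ^ 2 * f.two
  rcases z2c i with rfl | rfl <;> rcases z2c j with rfl | rfl
  · rfl
  · exact (key a b h).elim
  · exact (key b a (by simpa only [add_comm] using h)).elim
  · rfl

end F4

end

end Cfsg.Agent.H21.FS
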