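import Mathlib
import Cfsg.Agent.FT.BG01
import Cfsg.Agent.H28.Cls2
import Cfsg.Agent.H6.Frobenius
/-! Class sizes of `p`-singular elements. -/
set_option autoImplicit false
set_option linter.unusedSectionVars false
set_option linter.unusedVariables false
set_option linter.style.haveILetI false
namespace Cfsg.Agent.H21.PS
open Subgroup Cfsg.Agent.FT Cfsg.Agent.H28
open scoped commutatorElement

variable {G : Type*} [Group G] [Finite G] {C P : Subgroup G} {p : ℕ} {x y d : G}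

theorem syl_of_ndvd (hp : p.Prime) (h : ¬ p ∣ C.index) : ∃ P, Syl p P ⊤ ∧ P ≤ C :=
  p'nat_relIndex_iff le_top |>.1 ((p'nat_iff hp).2 (by rwa [relIndex_top_right]))

theorem nml_of_p' (hp : p.Prime) (hP : Syl p P ⊤) (hC : P ≤ C)
    (h : ∀ w ∈ C, PiElt {p}ᶜ w → ¬ p ∣ (C ⊓ C[w]).index) : C ≤ P ⊔ C(P) := by
  have := H6.eq_top_of_forall_conj_mem ((P ⊔ C(P)).subgroupOf C) fun x => ?_
  · exact subgroupOf_eq_top.1 this
  obtain ⟨Q, hQ, h1⟩ := syl_of_ndvd hp (h _ (constt_mem {p}ᶜ x.2) (piElt_constt _ _))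
  obtain ⟨g, hg, h2⟩ := (hQ.subl h1 le_top).syl_elt
    ⟨constt_mem {p} x.2, mem_cen1.2 (constt_comm _ _ _)⟩ (piElt_constt {p} (x : G))
  obtain ⟨k, hk, rfl⟩ := (hP.subl hC le_top).syl_trans (hQ.subl (h1.trans inf_le_left) le_top)
  refine ⟨⟨k⁻¹ * g, mul_mem (inv_mem hk) hg.1⟩, ?_⟩
  have e : cj k⁻¹ (cj k P ⊔ C(cj k P)) = P ⊔ C(P) := by rw [cj_sup, cj_cen, cj_inv_cj]
  have : g * x * g⁻¹ ∈ cj k P ⊔ C(cj k P) := by
    rw [← constt_mul_compl {p} (x : G), show g * (constt {p} (x : G) * constt {p}ᶜ (x : G)) * g⁻¹ =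
      g * constt {p} (x : G) * g⁻¹ * (g * constt {p}ᶜ (x : G) * g⁻¹) by group]
    refine mul_mem (mem_sup_left h2) (mem_sup_right ?_)
    rw [mem_cen1.1 hg.2, mul_inv_cancel_right]
    exact le_cen1.1 (h1.trans inf_le_right)
  rw [mem_subgroupOf, ← e, mem_cj]
  simpa [mul_assoc] using this

theorem split (h : (C[x]).index.Coprime C.index) (g : G) : ∃ c ∈ C, g * x * g⁻¹ = c * x * c⁻¹ := by
  obtain ⟨a, ha, b, hb, rfl⟩ := (mulEq_of_coprime_relIndex (A := C) (B := C[x]) (M := ⊤) le_top le_top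
    (by rw [relIndex_top_right, relIndex_top_right]; exact h.symm)).mul g (mem_top _)
  exact ⟨a, ha, by rw [mul_assoc a, mem_cen1.1 hb]; group⟩

theorem core (hp : p.Prime) (oy : orderOf y = p) (od : orderOf d = p) (d1 : (C[d]).index ≠ 1)
    (hc : (C[d]).index.Coprime (C[y]).index) (hle : (C[d * y]).index ≤ (C[y]).index)
    (H : ∀ z : G, p ∣ orderOf z → (C[z]).index.Coprime (C[y]).index ∨ (C[z]).index.Coprime (C[d]).index) : False := by
  have pd : PiElt {p} d := pElt_of_pow_eq_one hp (od ▸ pow_orderOf_eq_one d)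
  have a1 : clsStab y ≤ C[d] :=
    H27.le_centralizer_of_coprime_index (Nat.Coprime.coprime_dvd_left (card_clsStab_dvd y) hc.symm)
  have a2 : ∀ g, g * d * g⁻¹ ∈ C[d] := fun g => by
    have := mul_mem (a1 (comm_mem_clsStab hc hle g)) (self_mem_cen1 d)
    rwa [commutatorElement_def, inv_mul_cancel_right] at this
  have a3 : p ∣ (C[y]).index := by
    obtain ⟨g, hg⟩ : ∃ g, ⁅g, d⁆ ≠ 1 := by
      by_contra e
      push Not at e
      exact d1 (cs_eq_one.2 (mem_center_iff.2 fun g => commutatorElement_eq_one_iff_mul_comm.1 (e g)))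
    have : PiElt {p} ⁅g, d⁆ := (pd.conj g).mul pd.inv (mem_cen1.1 (cen1_inv d ▸ a2 g))
    exact (this.zpowers.dvd (by simpa using hg)).trans
      ((card_dvd_of_le (zpowers_le.2 (comm_mem_clsStab hc hle g))).trans (card_clsStab_dvd y))
  have H' : ∀ z : G, p ∣ orderOf z → p ∣ (C[z]).index → (C[z]).index.Coprime (C[d]).index := fun z h1 h2 =>
    (H z h1).resolve_left fun e => hp.one_lt.ne' (Nat.eq_one_of_dvd_coprimes e h2 a3)
  obtain ⟨P, hP, hC⟩ := syl_of_ndvd hp (fun e => hp.one_lt.ne' (Nat.eq_one_of_dvd_coprimes hc e a3))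
  have b4 : C[d] ≤ P ⊔ C(P) := nml_of_p' hp hP hC fun w hw pw e => by
    have e1 := cen1_mul_pi pd pw (mem_cen1.1 hw).symm
    have e2 : p ∣ orderOf (d * w) := by
      have := constt_mem_zpowers {p} (d * w)
      rw [constt_mul_of_pi pd pw (mem_cen1.1 hw).symm] at this
      exact od ▸ orderOf_dvd_of_mem_zpowers this
    have := H' _ e2 (e1 ▸ e)
    rw [e1] at this
    exact d1 (Nat.eq_one_of_dvd_coprimes this (index_dvd_of_le inf_le_left) dvd_rfl)
  have b1 : C[d] ≤ N(P) := b4.trans (sup_le le_normalizer (cen_le_nrm P))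
  have po : ∀ u ∈ P, u ≠ 1 → p ∣ orderOf u := fun u hu u1 => by
    rw [← Nat.card_zpowers]; exact (hP.pi.mono (zpowers_le.2 hu)).dvd (by simpa using u1)
  have hD : (C[d]).normalCore ⊴ ⊤ := nml_top_iff.2 inferInstance
  have dM : d ∈ O[{p}](Z((C[d]).normalCore)) :=
    (ab_center _).nil.mem_pcore ⟨a2, le_cen1.1 (normalCore_le _)⟩ pd
  have hM : O[{p}](Z((C[d]).normalCore)) ⊴ ⊤ := hD.center.pcore _
  have b2 : P ≤ (C[d]).normalCore := fun u hu g => by
    by_cases u1 : u = 1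
    · simp [u1]
    by_cases e : p ∣ (C[u]).index
    · obtain ⟨c, h1, h2⟩ := split (H' u (po u hu u1) e) g
      exact h2 ▸ hC (conj_mem (b1 h1) hu)
    · obtain ⟨Q, hQ, h1⟩ := syl_of_ndvd hp e
      have := mem_cen1.1 (h1 (hQ.ge_of_nml (pcore_pi _ _) hM (conj_mem' (hM.nrm (mem_top g)) dM)))
      refine mem_cen1.2 ?_
      calc g * u * g⁻¹ * d = g * (u * (g⁻¹ * d * g)) * g⁻¹ := by group
        _ = _ := by rw [← this]; group
  have b3 : ⊤ ≤ N(P) := by
    rw [← ((hP.subl b2 le_top).frattini hD).sup]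
    exact sup_le ((normalCore_le _).trans b1) inf_le_right
  have nz : ∀ u ∈ P, ¬ P ≤ C[u] → p ∣ (C[u]).index := fun u hu h => by_contra fun e => by
    obtain ⟨Q, hQ, h1⟩ := syl_of_ndvd hp e
    exact h ((hQ.ge_of_nml hP.pi ⟨le_top, b3⟩).trans h1)
  have yP : y ∈ P := hP.mem_of_nml b3 (mem_top y) (pElt_of_pow_eq_one hp (oy ▸ pow_orderOf_eq_one y))
  have y1 : ¬ P ≤ C[y] := fun e => hP.not_dvd hp (by rw [relIndex_top_right]; exact a3.trans (index_dvd_of_le e))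
  obtain ⟨t, ht, t1⟩ := Nat.exists_prime_and_dvd d1
  have tp : t ≠ p := fun e => hp.one_lt.ne' (Nat.eq_one_of_dvd_coprimes hc (e ▸ t1) a3)
  have b5 : ∀ u ∈ P, ¬ P ≤ C[u] → ∀ g, g * u * g⁻¹ * u⁻¹ ∈ Phi P := fun u hu h g => by
    obtain ⟨c, h1, h2⟩ := split (H' u (po u hu (by rintro rfl; exact h (by simp [cen1_one]))) (nz u hu h)) g
    obtain ⟨a, ha, b, hb, rfl⟩ := (mulEq_sup (cen_le_nrm P)).mul c (b4 h1)
    rw [h2, mul_assoc a, ← mem_cen.1 hb u hu, show a * (u * b) * (a * b)⁻¹ * u⁻¹ = ⁅a, u⁆ by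
      rw [commutatorElement_def]; group]
    exact hP.pi.der_le_Phi (commutator_mem_commutator ha hu)
  have b6 : ∀ u ∈ P, ∀ g, g * u * g⁻¹ * u⁻¹ ∈ Phi P := fun u hu g => by
    by_cases h : P ≤ C[u]
    · have := b5 (y * u) (mul_mem yP hu) (fun e => y1 fun v hv => mem_cen1.2 (by
        have e1 := mem_cen1.1 (e hv)
        rwa [← mul_assoc, mul_assoc y, ← mem_cen1.1 (h hv), ← mul_assoc, mul_left_inj] at e1)) g
      have e2 := mul_mem (inv_mem (b5 y yP y1 g)) this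
      have := conj_mem' (Phi_nrm P yP) e2
      convert this using 1
      group
    · exact b5 u hu h g
  obtain ⟨T, hT⟩ := exists_syl t (⊤ : Subgroup G)
  have b7 : T ≤ C(P) := coprime_cent_Phi (hP.pi.cop (hT.pi.p' tp)) (by
    rw [commC]; exact commutator_le.2 fun g _ u hu => b6 u hu g)
  have dP : d ∈ P := hP.mem_of_nml b3 (mem_top d) pd
  exact hT.not_dvd ht (by rw [relIndex_top_right]; exact t1.trans (index_dvd_of_le (b7.trans (cen_le_cen1 dP))))

theorem key (hp : p.Prime) (oy : orderOf y = p) (od : orderOf d = p) (y1 : (C[y]).index ≠ 1) (d1 : (C[d]).index ≠ 1)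
    (H : ∀ z : G, p ∣ orderOf z → (C[z]).index.Coprime (C[y]).index ∨ (C[z]).index.Coprime (C[d]).index) : False := by
  have hc : (C[y]).index.Coprime (C[d]).index :=
    (H y (oy ▸ dvd_rfl)).resolve_left fun e => y1 (Nat.eq_one_of_dvd_coprimes e dvd_rfl dvd_rfl)
  wlog h : ¬ p ∣ (C[y]).index generalizing y d
  · exact this od oy d1 y1 (fun z hz => (H z hz).symm) hc.symm fun e =>
      hp.one_lt.ne' (Nat.eq_one_of_dvd_coprimes hc (not_not.1 h) e)
  obtain ⟨P, hP, h1⟩ := syl_of_ndvd hp h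
  obtain ⟨g, -, h2⟩ := hP.syl_elt (mem_top d) (pElt_of_pow_eq_one hp (od ▸ pow_orderOf_eq_one d))
  rw [← index_cen1_conj g d] at d1 H hc
  rw [← orderOf_conj g d] at od
  generalize g * d * g⁻¹ = d at *
  have cm := mem_cen1.1 (h1 h2)
  have o : p ∣ orderOf (d * y) := by
    rw [← Nat.card_zpowers]
    refine (hP.pi.mono (zpowers_le.2 (mul_mem h2 ((hP.subl h1 le_top).mem_of_cen (self_mem_cen1 y)
      (pElt_of_pow_eq_one hp (oy ▸ pow_orderOf_eq_one y)) (le_cen1.1 h1))))).dvd fun e => y1 ?_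
    rw [eq_inv_of_mul_eq_one_left (zpowers_eq_bot.1 e), cen1_inv] at hc
    exact Nat.eq_one_of_dvd_coprimes hc dvd_rfl dvd_rfl
  have dv : (C[d * y]).index ∣ (C[d]).index * (C[y]).index := by
    have e := (mulEq_of_coprime_relIndex (A := C[d]) (B := C[y]) (M := ⊤) le_top le_top
      (by rw [relIndex_top_right, relIndex_top_right]; exact hc.symm)).relIndex_left
    rw [← relIndex_top_right (C[d]), e, ← inf_relIndex_right, relIndex_mul_index inf_le_right]
    exact index_dvd_of_le fun z hz => mem_cen1.2 (by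
      rw [← mul_assoc, mem_cen1.1 hz.1, mul_assoc, mem_cen1.1 hz.2, mul_assoc])
  rcases H _ o with e | e
  · exact core hp od oy y1 hc (by
      rw [← cm]; exact Nat.le_of_dvd (cs_pos _) (e.dvd_of_dvd_mul_right dv)) fun z hz => (H z hz).symm
  · exact core hp oy od d1 hc.symm (Nat.le_of_dvd (cs_pos _) (e.dvd_of_dvd_mul_left dv)) H

theorem main (hp : p.Prime) (hZ : ¬ p ∣ #(center G)) {x' : G} (hx : p ∣ orderOf x) (hx' : p ∣ orderOf x') :
    ∃ z : G, p ∣ orderOf z ∧ ∃ t u : ℕ, t.Prime ∧ u.Prime ∧ t ∣ (C[x]).index ∧ t ∣ (C[z]).index ∧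
      u ∣ (C[z]).index ∧ u ∣ (C[x']).index := by
  have a : ∀ x : G, p ∣ orderOf x → ∃ y : G, orderOf y = p ∧ (C[y]).index ≠ 1 ∧ (C[y]).index ∣ (C[x]).index :=
    fun x hx => by
    obtain ⟨y, h1, h2⟩ := exists_elt_of_prime_dvd (H := ⟪x⟫) hp (by rwa [Nat.card_zpowers])
    exact ⟨y, h2, fun e => hZ (h2 ▸ orderOf_dvd_natCard _ (cs_eq_one.1 e)),
      index_dvd_of_le (cen1_le_cen1_of_mem_zpowers h1)⟩
  obtain ⟨y, y1, y2, y3⟩ := a x hx
  obtain ⟨d, d1, d2, d3⟩ := a x' hx'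
  by_contra h
  refine key hp y1 d1 y2 d2 fun z hz => by_contra fun e => h ?_
  rw [not_or, Nat.Prime.not_coprime_iff_dvd, Nat.Prime.not_coprime_iff_dvd] at e
  obtain ⟨⟨t, t1, t2, t3⟩, u, u1, u2, u3⟩ := e
  exact ⟨z, hz, t, u, t1, u1, t3.trans y3, t2, u2, u3.trans d3⟩

end Cfsg.Agent.H21.PS
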