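import Mathlib
import Cfsg.Agent.H2.MinNormal
import Cfsg.Agent.H1.Hall
/-! Two primes in `(n/2, n]`; groups with the order and spectrum of an alternating group. -/
set_option autoImplicit false
set_option linter.unusedSectionVars false
set_option linter.style.haveILetI false
namespace Cfsg.Agent.H21.Sp
open Nat

theorem centralBinom_le_one_prime (n : ℕ) (n_large : 2 < n) (r : ℕ)
    (no_prime : ∀ p : ℕ, p.Prime → n < p → p ≤ 2 * n → p = r) :
    centralBinom n ≤ (2 * n) ^ sqrt (2 * n) * 4 ^ (2 * n / 3) := by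
  have n_pos : 0 < n := (Nat.zero_le _).trans_lt n_large
  have n2_pos : 1 ≤ 2 * n := mul_pos (zero_lt_two' ℕ) n_pos
  let f : ℕ → ℕ := fun x => x ^ n.centralBinom.factorization x
  let A := insert r (Finset.Icc 2 (sqrt (2 * n)))
  let B := {p ∈ Finset.range (2 * n / 3 + 1) | Nat.Prime p ∧ sqrt (2 * n) < p}
  have hf : ∀ p, f p ≤ 2 * n := fun p => pow_factorization_choose_le (mul_pos two_pos n_pos)
  have hf1 : ∀ p, 1 ≤ f p := fun p => by
    by_cases hp : p = 0
    · subst hp; simp [f]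
    · exact Nat.one_le_pow _ _ (Nat.pos_of_ne_zero hp)
  have h1 : centralBinom n ≤ ∏ x ∈ A ∪ B, f x := by
    rw [← n.prod_pow_factorization_centralBinom, ← Finset.prod_filter_ne_one]
    refine Finset.prod_le_prod_of_subset_of_one_le' ?_ ?_
    · intro x hx
      obtain ⟨hx, h1⟩ := Finset.mem_filter.1 hx
      rw [Finset.mem_range, Nat.lt_succ_iff] at hx
      have hxp : x.Prime := by
        by_contra h
        exact h1 (by rw [factorization_eq_zero_of_not_prime n.centralBinom h, Nat.pow_zero])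
      rw [Finset.mem_union]
      by_cases hs : x ≤ sqrt (2 * n)
      · exact Or.inl (Finset.mem_insert_of_mem (Finset.mem_Icc.2 ⟨hxp.two_le, hs⟩))
      by_cases hn : n < x
      · exact Or.inl (by rw [no_prime x hxp hn hx]; exact Finset.mem_insert_self _ _)
      refine Or.inr (Finset.mem_filter.2 ⟨?_, hxp, not_le.1 hs⟩)
      rw [Finset.mem_range, Nat.lt_succ_iff]
      by_contra h2
      rw [not_le, div_lt_iff_lt_mul three_pos, mul_comm x] at h2
      exact h1 (by rw [factorization_centralBinom_of_two_mul_self_lt_three_mul n_large (not_lt.1 hn) h2,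
        Nat.pow_zero])
    · intro x _ _; exact hf1 x
  refine h1.trans ?_
  have h2 : ∏ x ∈ A ∪ B, f x ≤ (∏ x ∈ A, f x) * ∏ x ∈ B, f x := by
    rw [← Finset.prod_union_inter]
    exact Nat.le_mul_of_pos_right _ (Finset.prod_pos fun x _ => hf1 x)
  refine h2.trans (mul_le_mul' ?_ ?_)
  · refine (Finset.prod_le_prod' fun p _ => hf p).trans ?_
    rw [Finset.prod_const]
    refine pow_right_mono₀ n2_pos ((Finset.card_insert_le _ _).trans ?_)
    rw [card_Icc]
    have : 1 ≤ sqrt (2 * n) := by rw [Nat.le_sqrt]; omega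
    omega
  · refine le_trans ?_ (primorial_le_four_pow (2 * n / 3))
    refine (Finset.prod_le_prod' fun p hp => (?_ : f p ≤ p)).trans ?_
    · obtain ⟨_, h1, h2⟩ := Finset.mem_filter.1 hp
      refine (pow_right_mono₀ h1.one_lt.le ?_).trans (pow_one p).le
      exact Nat.factorization_choose_le_one (sqrt_lt'.mp h2)
    refine Finset.prod_le_prod_of_subset_of_one_le' ?_ ?_
    · intro p hp
      obtain ⟨h0, h1, _⟩ := Finset.mem_filter.1 hp
      exact Finset.mem_filter.2 ⟨h0, h1⟩
    · exact fun p hp _ => (Finset.mem_filter.1 hp).2.one_lt.le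

theorem two_primes_large (n : ℕ) (n_large : 512 ≤ n) :
    ∃ p q : ℕ, p.Prime ∧ q.Prime ∧ q < p ∧ n < q ∧ p ≤ 2 * n := by
  obtain ⟨r, hr, h1, h2⟩ := Nat.exists_prime_lt_and_le_two_mul n (by omega)
  by_contra hcon
  have h4 : 4 ^ n < n * n.centralBinom :=
    Nat.four_pow_lt_mul_centralBinom n (le_trans (by norm_num1) n_large)
  have := centralBinom_le_one_prime n (by omega) r (fun p hp h3 h4 => by
    by_contra hne
    rcases lt_or_gt_of_ne hne with h | h
    · exact hcon ⟨r, p, hr, hp, h, h3, h2⟩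
    · exact hcon ⟨p, r, hp, hr, h, h1, h4⟩)
  have h5 := bertrand_main_inequality n_large
  have h6 : n * n.centralBinom ≤ n * ((2 * n) ^ sqrt (2 * n) * 4 ^ (2 * n / 3)) := Nat.mul_le_mul_left _ this
  rw [← mul_assoc] at h6
  omega

/-- there are two primes in `(m/2, m]` for `m ≥ 11`. -/
theorem two_primes (m : ℕ) (hm : 11 ≤ m) :
    ∃ p q : ℕ, p.Prime ∧ q.Prime ∧ q < p ∧ m < 2 * q ∧ p ≤ m := by
  by_cases h : 1024 ≤ m
  · obtain ⟨p, q, hp, hq, h1, h2, h3⟩ := two_primes_large (m / 2) (by omega)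
    exact ⟨p, q, hp, hq, h1, by omega, by omega⟩
  have key : ∀ p q : ℕ, p.Prime → q.Prime → q < p → m < 2 * q → p ≤ m →
      ∃ p q : ℕ, p.Prime ∧ q.Prime ∧ q < p ∧ m < 2 * q ∧ p ≤ m :=
    fun p q a b c d e => ⟨p, q, a, b, c, d, e⟩
  by_cases h1 : m < 14
  · exact key 11 7 (by norm_num) (by norm_num) (by norm_num) (by omega) (by omega)
  by_cases h1 : m < 22
  · exact key 13 11 (by norm_num) (by norm_num) (by norm_num) (by omega) (by omega)
  by_cases h1 : m < 26
  · exact key 19 13 (by norm_num) (by norm_num) (by norm_num) (by omega) (by omega)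
  by_cases h1 : m < 38
  · exact key 23 19 (by norm_num) (by norm_num) (by norm_num) (by omega) (by omega)
  by_cases h1 : m < 46
  · exact key 37 23 (by norm_num) (by norm_num) (by norm_num) (by omega) (by omega)
  by_cases h1 : m < 74
  · exact key 43 37 (by norm_num) (by norm_num) (by norm_num) (by omega) (by omega)
  by_cases h1 : m < 86
  · exact key 73 43 (by norm_num) (by norm_num) (by norm_num) (by omega) (by omega)
  by_cases h1 : m < 146
  · exact key 83 73 (by norm_num) (by norm_num) (by norm_num) (by omega) (by omega)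
  by_cases h1 : m < 166
  · exact key 139 83 (by norm_num) (by norm_num) (by norm_num) (by omega) (by omega)
  by_cases h1 : m < 278
  · exact key 163 139 (by norm_num) (by norm_num) (by norm_num) (by omega) (by omega)
  by_cases h1 : m < 326
  · exact key 277 163 (by norm_num) (by norm_num) (by norm_num) (by omega) (by omega)
  by_cases h1 : m < 554
  · exact key 317 277 (by norm_num) (by norm_num) (by norm_num) (by omega) (by omega)
  by_cases h1 : m < 634
  · exact key 547 317 (by norm_num) (by norm_num) (by norm_num) (by omega) (by omega)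
  exact key 631 547 (by norm_num) (by norm_num) (by norm_num) (by omega) (by omega)

theorem not_sq_dvd_factorial {p n : ℕ} (hp : p.Prime) (h : n < 2 * p) : ¬ p ^ 2 ∣ n ! := by
  have h2 := hp.two_le
  have hl : Nat.log p n < 2 := by
    rcases Nat.eq_zero_or_pos n with rfl | hn
    · simp
    · exact Nat.log_lt_of_lt_pow hn.ne' (by nlinarith)
  rw [hp.pow_dvd_factorial_iff hl]
  have : n / p < 2 := by rw [Nat.div_lt_iff_lt_mul hp.pos]; omega
  simp only [show Finset.Ico 1 2 = {1} from rfl, Finset.sum_singleton, pow_one]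
  omega

theorem no_pq {n p q : ℕ} (hp : p.Prime) (hq : q.Prime) (hne : p ≠ q) (h : n < p + q)
    (g : Equiv.Perm (Fin n)) : orderOf g ≠ p * q := by
  intro hg
  rw [← g.lcm_cycleType] at hg
  have hd : ∀ r : ℕ, r.Prime → r ∣ g.cycleType.lcm → ∃ a ∈ g.cycleType, r ∣ a := by
    intro r hr h1
    have h2 : r ∣ g.cycleType.prod :=
      h1.trans (Multiset.lcm_dvd.2 fun b hb => Multiset.dvd_prod hb)
    exact hr.prime.exists_mem_multiset_dvd h2
  obtain ⟨a, ha, hpa⟩ := hd p hp (hg ▸ Dvd.intro _ rfl)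
  obtain ⟨b, hb, hqb⟩ := hd q hq (hg ▸ Dvd.intro_left _ rfl)
  have hs : g.cycleType.sum ≤ n := by
    rw [g.sum_cycleType]; simpa using Finset.card_le_univ g.support
  have ha0 : 0 < a := lt_of_lt_of_le two_pos (Equiv.Perm.two_le_of_mem_cycleType ha)
  have hb0 : 0 < b := lt_of_lt_of_le two_pos (Equiv.Perm.two_le_of_mem_cycleType hb)
  by_cases hab : a = b
  · subst hab
    have h1 : p * q ∣ a := ((Nat.coprime_primes hp hq).2 hne).mul_dvd_of_dvd_of_dvd hpa hqb
    have h2 := Nat.le_of_dvd ha0 h1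
    have h3 : a ≤ g.cycleType.sum := Multiset.single_le_sum (fun _ _ => Nat.zero_le _) _ ha
    have := hp.two_le; have := hq.two_le
    nlinarith
  · have hb' : b ∈ g.cycleType.erase a := (Multiset.mem_erase_of_ne (Ne.symm hab)).2 hb
    have h1 : g.cycleType.sum = a + (g.cycleType.erase a).sum := by
      conv_lhs => rw [← Multiset.cons_erase ha]
      rw [Multiset.sum_cons]
    have h3 : b ≤ (g.cycleType.erase a).sum := Multiset.single_le_sum (fun _ _ => Nat.zero_le _) _ hb'
    have := Nat.le_of_dvd ha0 hpa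
    have := Nat.le_of_dvd hb0 hqb
    omega

variable {G : Type*} [Group G] [Finite G]
open Subgroup

theorem pq_of_norm {p q : ℕ} (hp : p.Prime) (hq : q.Prime) (hne : p ≠ q) (hd : ¬ q ∣ p - 1)
    (P : Subgroup G) (hP : Nat.card P = p) (y : G) (hy : y ∈ normalizer (P : Set G)) (ho : orderOf y = q) :
    ∃ g : G, orderOf g = p * q := by
  haveI := Fact.mk hp
  haveI : IsCyclic P := isCyclic_of_prime_card hP
  obtain ⟨x, hx⟩ := exists_prime_orderOf_dvd_card' (G := P) p (by rw [hP])
  let ψ := P.normalizerMonoidHom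
  have h1 : orderOf (ψ ⟨y, hy⟩) ∣ q := by
    refine (orderOf_map_dvd ψ _).trans ?_
    rw [← ho, ← orderOf_coe]
  have h2 : orderOf (ψ ⟨y, hy⟩) ∣ p - 1 := by
    have := orderOf_dvd_natCard (ψ ⟨y, hy⟩)
    rwa [IsCyclic.card_mulAut, hP, Nat.totient_prime hp] at this
  have h3 : ψ ⟨y, hy⟩ = 1 := by
    rcases (Nat.dvd_prime hq).1 h1 with h | h
    · exact orderOf_eq_one_iff.1 h
    · exact absurd (h ▸ h2) hd
  have h4 : y * x * y⁻¹ = x := by
    have := congrArg (fun f : MulAut P => ((f x : P) : G)) h3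
    simpa [ψ] using this
  have hc : Commute (x : G) y := by
    show (x : G) * y = y * x
    conv_lhs => rw [← h4]
    group
  refine ⟨x * y, ?_⟩
  rw [hc.orderOf_mul_eq_mul_orderOf_of_coprime, orderOf_coe, hx, ho]
  rw [orderOf_coe, hx, ho]; exact (Nat.coprime_primes hp hq).2 hne

theorem card_sylow_eq {p : ℕ} [hp : Fact p.Prime] (P : Sylow p G) (h1 : p ∣ Nat.card G)
    (h2 : ¬ p ^ 2 ∣ Nat.card G) : Nat.card (P : Subgroup G) = p := by
  rw [P.card_eq_multiplicity]
  have h0 : Nat.card G ≠ 0 := Nat.card_pos.ne'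
  have a1 := (hp.out.pow_dvd_iff_le_factorization h0).1 (show p ^ 1 ∣ _ by simpa using h1)
  have a2 : ¬ 2 ≤ _ := fun h => h2 ((hp.out.pow_dvd_iff_le_factorization h0).2 h)
  have : (Nat.card G).factorization p = 1 := by omega
  rw [this, pow_one]

theorem pq_of_normal {p q : ℕ} (hp : p.Prime) (hq : q.Prime) (hne : p ≠ q) (hd : ¬ q ∣ p - 1)
    (N : Subgroup G) [N.Normal] (h1 : p ∣ Nat.card N) (h2 : ¬ p ^ 2 ∣ Nat.card G)
    (h3 : q ∣ Nat.card G) (h4 : ¬ q ∣ Nat.card N) : ∃ g : G, orderOf g = p * q := by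
  haveI := Fact.mk hp
  haveI := Fact.mk hq
  obtain ⟨P⟩ : Nonempty (Sylow p N) := inferInstance
  have hP := card_sylow_eq P h1 (fun h => h2 (h.trans N.card_subgroup_dvd_card))
  have hF := Sylow.normalizer_sup_eq_top P
  set M := normalizer (((P : Subgroup N).map N.subtype : Subgroup G) : Set G) with hM
  have h5 : q ∣ Nat.card M := by
    have a1 : N.relIndex M = N.index := by
      rw [← relIndex_top_right, ← hF, relIndex_sup_right]
    have a2 : q ∣ N.index := by
      rw [← N.card_mul_index] at h3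
      exact (hq.dvd_mul.1 h3).resolve_left h4
    rw [← a1] at a2
    exact a2.trans (relIndex_dvd_card N M)
  obtain ⟨y, hy⟩ := exists_prime_orderOf_dvd_card' (G := M) q h5
  exact pq_of_norm hp hq hne hd _ (by rw [card_map_of_injective N.subtype_injective, hP]) y y.2
    (by rw [orderOf_coe, hy])

theorem pq_of_solvable (hs : Group.IsSolvable G) {p q : ℕ} (hp : p.Prime) (hq : q.Prime) (hne : p ≠ q)
    (hd : ¬ q ∣ p - 1) (h1 : p ∣ Nat.card G) (h2 : ¬ p ^ 2 ∣ Nat.card G) (h3 : q ∣ Nat.card G)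
    (h4 : ∀ j, q ^ j ∣ Nat.card G → q ^ j ≡ 1 [MOD p] → j = 0) : ∃ g : G, orderOf g = p * q := by
  haveI := Fact.mk hp
  haveI := Fact.mk hq
  obtain ⟨K, hK1, hK2⟩ := H1.exists_isPiHall ({p, q} : Set ℕ) hs
  have hd' : ∀ r, r.Prime → r ∈ ({p, q} : Set ℕ) → r ∣ Nat.card G → r ∣ Nat.card K := by
    intro r hr h5 h6
    rw [← K.card_mul_index] at h6
    exact (hr.dvd_mul.1 h6).resolve_right (hK2 r hr h5)
  obtain ⟨P⟩ : Nonempty (Sylow p K) := inferInstance
  have hP := card_sylow_eq P (hd' p hp (by simp) h1) (fun h => h2 (h.trans K.card_subgroup_dvd_card))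
  have a1 : Nat.card (Sylow p K) ∣ Nat.card K := P.card_dvd_index.trans (index_dvd_card _)
  have a2 := card_sylow_modEq_one p K
  have a3 : ∃ j, Nat.card (Sylow p K) = q ^ j := by
    refine ⟨_, Nat.eq_prime_pow_of_unique_prime_dvd Nat.card_pos.ne' ?_⟩
    intro r hr h5
    rcases hK1 r hr (h5.trans a1) with h | h
    · subst h
      exact absurd h5 (not_dvd_card_sylow r K)
    · exact h
  obtain ⟨j, hj⟩ := a3
  have hj0 := h4 j (hj ▸ a1.trans K.card_subgroup_dvd_card) (hj ▸ a2)
  rw [hj0, pow_zero] at hj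
  haveI : Subsingleton (Sylow p K) := (Nat.card_eq_one_iff_unique.1 hj).1
  haveI : (P : Subgroup K).Normal := Sylow.normal_of_subsingleton P
  obtain ⟨y, hy⟩ := exists_prime_orderOf_dvd_card' (G := K) q (hd' q hq (by simp) h3)
  obtain ⟨g, hg⟩ := pq_of_norm hp hq hne hd (P : Subgroup K) hP y
    (by rw [normalizer_eq_top]; trivial) hy
  exact ⟨g, by rw [orderOf_coe, hg]⟩

theorem simple_of_minNormal {M : Subgroup G} (hM : H2.IsMinNormal M) {p : ℕ} (hp : p.Prime)
    (h1 : p ∣ Nat.card M) (h2 : ¬ p ^ 2 ∣ Nat.card M) : IsSimpleGroup M := by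
  haveI := Fact.mk hp
  haveI := hM.1
  haveI : Nontrivial M := (nontrivial_iff_ne_bot M).2 hM.2.1
  refine ⟨fun K hK => ?_⟩
  by_cases hpK : p ∣ Nat.card K
  · right
    -- the elements of order `p` of `M` lie in `K`
    let J : Subgroup G := closure {x : G | x ∈ M ∧ orderOf x = p}
    have hJn : J.Normal := by
      refine ⟨fun x hx g => ?_⟩
      induction hx using closure_induction with
      | mem x hx =>
        refine subset_closure ⟨hM.1.conj_mem x hx.1 g, ?_⟩
        rw [← hx.2]; exact (MulAut.conj g).orderOf_eq x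
      | one => simp
      | mul x y _ _ hx hy =>
        have : g * (x * y) * g⁻¹ = (g * x * g⁻¹) * (g * y * g⁻¹) := by group
        rw [this]; exact J.mul_mem hx hy
      | inv x _ hx =>
        have : g * x⁻¹ * g⁻¹ = (g * x * g⁻¹)⁻¹ := by group
        rw [this]; exact J.inv_mem hx
    have hJM : J ≤ M := (closure_le _).2 fun x hx => hx.1
    obtain ⟨x0, hx0⟩ := exists_prime_orderOf_dvd_card' (G := M) p h1
    have hJ : J = M := by
      refine (hM.2.2 J hJn hJM).resolve_left fun h => ?_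
      have : (x0 : G) ∈ J := subset_closure ⟨x0.2, by rw [orderOf_coe, hx0]⟩
      rw [h, mem_bot] at this
      have h3 : x0 = 1 := Subtype.ext this
      rw [h3, orderOf_one] at hx0
      exact hp.one_lt.ne hx0
    have hKi : ¬ p ∣ K.index := by
      intro h
      apply h2
      rw [← K.card_mul_index, pow_two]
      exact Nat.mul_dvd_mul hpK h
    have hJK : J ≤ K.map M.subtype := by
      refine (closure_le _).2 fun x hx => ?_
      refine ⟨⟨x, hx.1⟩, ?_, rfl⟩
      have a1 : orderOf (QuotientGroup.mk' K ⟨x, hx.1⟩) ∣ p := by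
        refine (orderOf_map_dvd _ _).trans ?_
        rw [← orderOf_coe]; exact hx.2.dvd
      have a2 : orderOf (QuotientGroup.mk' K ⟨x, hx.1⟩) ∣ K.index := orderOf_dvd_natCard _
      rcases (Nat.dvd_prime hp).1 a1 with h | h
      · exact (QuotientGroup.eq_one_iff _).1 (orderOf_eq_one_iff.1 h)
      · exact absurd (h ▸ a2) hKi
    rw [eq_top_iff]
    intro x _
    obtain ⟨y, hy, h3⟩ := hJK (show (x : G) ∈ J by rw [hJ]; exact x.2)
    have : y = x := Subtype.ext h3
    exact this ▸ hy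
  · left
    have a1 : K ≤ pPrimeCore p M :=
      H2.le_pPrimeCore ((Nat.coprime_comm.1 ((Nat.Prime.coprime_iff_not_dvd hp).2 hpK)))
    rcases hM.2.2 _ (H2.pPrimeCore_map_subtype_normal (p := p) M) (map_subtype_le _) with h | h
    · rw [eq_bot_iff]
      intro x hx
      have : (x : G) ∈ (pPrimeCore p M).map M.subtype := ⟨x, a1 hx, rfl⟩
      rw [h, mem_bot] at this
      exact mem_bot.2 (Subtype.ext this)
    · have a2 := H2.pPrimeCore_coprime (p := p) (G := M)
      rw [← card_map_of_injective M.subtype_injective, h] at a2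
      exact absurd h1 ((Nat.Prime.coprime_iff_not_dvd hp).1 a2.symm)

theorem card_alt (n : ℕ) (hn : 2 ≤ n) : 2 * Nat.card (alternatingGroup (Fin n)) = n ! := by
  haveI : Nontrivial (Fin n) := Fin.nontrivial_iff_two_le.2 hn
  rw [two_mul_nat_card_alternatingGroup, Nat.card_perm]; simp

theorem no_pq_spec {n : ℕ}
    (hspec : Set.range (orderOf : G → ℕ) = Set.range (orderOf : ↥(alternatingGroup (Fin n)) → ℕ))
    {p q : ℕ} (hp : p.Prime) (hq : q.Prime) (hne : p ≠ q) (h : n < p + q) :
    ¬ ∃ g : G, orderOf g = p * q := by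
  intro hg
  have : p * q ∈ Set.range (orderOf : G → ℕ) := hg
  rw [hspec] at this
  obtain ⟨a, ha⟩ := this
  exact no_pq hp hq hne h a.1 (by rw [orderOf_coe, ha])

theorem dvd_card {n : ℕ} (hn : 2 ≤ n) (hcard : Nat.card G = Nat.card ↥(alternatingGroup (Fin n)))
    {p : ℕ} (hp : p.Prime) (h2 : p ≠ 2) (h : p ≤ n) : p ∣ Nat.card G := by
  have h1 : p ∣ 2 * Nat.card G := by rw [hcard, card_alt n hn]; exact (hp.dvd_factorial).2 h
  refine (hp.dvd_mul.1 h1).resolve_left fun h3 => h2 ?_
  exact (Nat.prime_dvd_prime_iff_eq hp Nat.prime_two).1 h3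

theorem card_dvd {n : ℕ} (hn : 2 ≤ n) (hcard : Nat.card G = Nat.card ↥(alternatingGroup (Fin n))) :
    Nat.card G ∣ n ! := by
  rw [← card_alt n hn, hcard]; exact Dvd.intro_left _ rfl

theorem not_solvable (n : ℕ) (hn : 5 ≤ n)
    (hcard : Nat.card G = Nat.card ↥(alternatingGroup (Fin n)))
    (hspec : Set.range (orderOf : G → ℕ) = Set.range (orderOf : ↥(alternatingGroup (Fin n)) → ℕ)) :
    ¬ Group.IsSolvable G := by
  intro hs
  have hc := card_dvd (by omega) hcard
  have key : ∀ p q : ℕ, p.Prime → q.Prime → 2 < q → q < p → p ≤ n → n < 2 * p → n < p + q → ¬ q ∣ p - 1 →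
      ¬ q ^ 3 ∣ n ! → (q ^ 2 ∣ n ! → ¬ q ^ 2 ≡ 1 [MOD p]) → False := by
    intro p q hp hq a1 a2 a3 a4 a5 a6 a7 a8
    refine no_pq_spec hspec hp hq a2.ne' a5 (pq_of_solvable hs hp hq a2.ne' a6
      (dvd_card (by omega) hcard hp (by omega) a3) (fun h => not_sq_dvd_factorial hp a4 (h.trans hc))
      (dvd_card (by omega) hcard hq (by omega) (by omega)) ?_)
    intro j b1 b2
    by_contra hj
    rcases (show j = 1 ∨ j = 2 ∨ 3 ≤ j by omega) with rfl | rfl | h
    · rw [pow_one] at b2
      have := Nat.ModEq.eq_of_lt_of_lt b2 a2 hp.one_lt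
      omega
    · exact a8 (b1.trans hc) b2
    · exact a7 ((pow_dvd_pow q h).trans (b1.trans hc))
  by_cases h11 : 11 ≤ n
  · obtain ⟨p, q, hp, hq, a1, a2, a3⟩ := two_primes n h11
    refine key p q hp hq (by omega) a1 a3 (by omega) (by omega) ?_ ?_ ?_
    · rintro ⟨c, hc⟩
      have h2 := hp.eq_two_or_odd'
      have h3 := hq.eq_two_or_odd'
      rcases (show c = 0 ∨ c = 1 ∨ 2 ≤ c by omega) with rfl | rfl | h
      · omega
      · rcases h2 with h2 | ⟨u, h2⟩ <;> rcases h3 with h3 | ⟨v, h3⟩ <;> omega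
      · have : q * 2 ≤ q * c := Nat.mul_le_mul_left _ h
        omega
    · exact fun h => not_sq_dvd_factorial hq a2 ((pow_dvd_pow q (by norm_num)).trans h)
    · exact fun h => absurd h (not_sq_dvd_factorial hq a2)
  · rcases (show n = 5 ∨ n = 6 ∨ n = 7 ∨ n = 8 ∨ n = 9 ∨ n = 10 by omega) with
      rfl | rfl | rfl | rfl | rfl | rfl
    · exact key 5 3 (by norm_num) (by norm_num) (by norm_num) (by norm_num) (by norm_num) (by norm_num)
        (by norm_num) (by norm_num) (by decide) (fun _ => by decide)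
    · exact key 5 3 (by norm_num) (by norm_num) (by norm_num) (by norm_num) (by norm_num) (by norm_num)
        (by norm_num) (by norm_num) (by decide) (fun _ => by decide)
    all_goals
      exact key 7 5 (by norm_num) (by norm_num) (by norm_num) (by norm_num) (by norm_num) (by norm_num)
        (by norm_num) (by norm_num) (by decide) (fun _ => by decide)

theorem section_simple (n : ℕ) (hn : 11 ≤ n)
    (hcard : Nat.card G = Nat.card ↥(alternatingGroup (Fin n)))
    (hspec : Set.range (orderOf : G → ℕ) = Set.range (orderOf : ↥(alternatingGroup (Fin n)) → ℕ)) :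
    ∃ (N H : Subgroup G) (_ : N.Normal), H.Normal ∧ N < H ∧
      IsSimpleGroup (↥H ⧸ N.subgroupOf H) ∧ ¬ IsMulCommutative (↥H ⧸ N.subgroupOf H) ∧
      ∀ p : ℕ, p.Prime → n < 2 * p → p ≤ n → p ∣ Nat.card (↥H ⧸ N.subgroupOf H) := by
  have hc := card_dvd (by omega) hcard
  obtain ⟨N, ⟨hNn, hN⟩, hmax⟩ := Set.Finite.exists_maximal (Set.toFinite
    {N : Subgroup G | N.Normal ∧ ∀ p : ℕ, p.Prime → n < 2 * p → p ≤ n → ¬ p ∣ Nat.card N})
    ⟨⊥, inferInstance, fun p hp _ _ h => by
      rw [card_bot] at h; exact hp.one_lt.ne' (Nat.dvd_one.1 h)⟩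
  obtain ⟨p0, q0, hp0, hq0, a1, a2, a3⟩ := two_primes n hn
  have hNt : N ≠ ⊤ := by
    rintro rfl
    exact hN p0 hp0 (by omega) a3 (by rw [card_top]; exact dvd_card (by omega) hcard hp0 (by omega) a3)
  haveI : Nontrivial (G ⧸ N) := QuotientGroup.nontrivial_iff.2 hNt
  obtain ⟨M, hM⟩ := H2.exists_isMinNormal (G := G ⧸ N)
  haveI := hM.1
  let H := M.comap (QuotientGroup.mk' N)
  have hNH : N ≤ H := fun x hx => by
    show QuotientGroup.mk' N x ∈ M
    rw [QuotientGroup.mk'_apply, (QuotientGroup.eq_one_iff x).2 hx]; exact M.one_mem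
  let f : H →* M := ((QuotientGroup.mk' N).comp H.subtype).codRestrict M fun x => x.2
  have hf : Function.Surjective f := by
    rintro ⟨y, hy⟩
    obtain ⟨x, rfl⟩ := QuotientGroup.mk'_surjective N y
    exact ⟨⟨x, hy⟩, rfl⟩
  have hk : f.ker = N.subgroupOf H := by
    ext x
    rw [MonoidHom.mem_ker, mem_subgroupOf, ← QuotientGroup.eq_one_iff]
    exact Subtype.ext_iff
  let e : (H ⧸ N.subgroupOf H) ≃* M :=
    (QuotientGroup.quotientMulEquivOfEq hk.symm).trans (QuotientGroup.quotientKerEquivOfSurjective f hf)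
  have hcH : Nat.card H = Nat.card N * Nat.card M := by
    rw [← Nat.card_congr e.toEquiv, ← (N.subgroupOf H).card_mul_index,
      Nat.card_congr (subgroupOfEquivOfLe hNH).toEquiv]
    rfl
  have hlt : N < H := by
    refine lt_of_le_of_ne hNH fun h => hM.2.1 ?_
    rw [eq_bot_iff]
    intro y hy
    obtain ⟨x, rfl⟩ := QuotientGroup.mk'_surjective N y
    have : x ∈ H := hy
    rw [← h] at this
    exact mem_bot.2 ((QuotientGroup.eq_one_iff x).2 this)
  obtain ⟨p, hp, b1, b2, b3⟩ : ∃ p : ℕ, p.Prime ∧ n < 2 * p ∧ p ≤ n ∧ p ∣ Nat.card H := by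
    by_contra hcon
    refine hlt.not_ge (hmax ⟨inferInstance, fun p hp b1 b2 b3 => hcon ⟨p, hp, b1, b2, b3⟩⟩ hNH)
  have hall : ∀ q : ℕ, q.Prime → n < 2 * q → q ≤ n → q ∣ Nat.card M := by
    intro q hq c1 c2
    have : q ∣ Nat.card H := by
      by_contra c3
      have hne : p ≠ q := by rintro rfl; exact c3 b3
      refine no_pq_spec hspec hp hq hne (by omega) (pq_of_normal hp hq hne ?_ H b3
        (fun h => not_sq_dvd_factorial hp b1 (h.trans hc)) (dvd_card (by omega) hcard hq (by omega) c2) c3)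
      rintro ⟨c, hc⟩
      have h2 := hp.eq_two_or_odd'
      have h3 := hq.eq_two_or_odd'
      rcases (show c = 0 ∨ c = 1 ∨ 2 ≤ c by omega) with rfl | rfl | h
      · omega
      · rcases h2 with h2 | ⟨u, h2⟩ <;> rcases h3 with h3 | ⟨v, h3⟩ <;> omega
      · have : q * 2 ≤ q * c := Nat.mul_le_mul_left _ h
        omega
    rw [hcH] at this
    exact (hq.dvd_mul.1 this).resolve_left (hN q hq c1 c2)
  have hMG : Nat.card M ∣ n ! := by
    refine Dvd.dvd.trans ?_ (H.card_subgroup_dvd_card.trans hc)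
    rw [hcH]; exact Dvd.intro_left _ rfl
  haveI hS := simple_of_minNormal hM hp (hall p hp b1 b2) (fun h => not_sq_dvd_factorial hp b1 (h.trans hMG))
  haveI hS' : IsSimpleGroup (H ⧸ N.subgroupOf H) := e.isSimpleGroup
  refine ⟨N, H, hNn, inferInstance, hlt, hS', fun hcomm => ?_, fun q hq c1 c2 => ?_⟩
  · letI : CommGroup (H ⧸ N.subgroupOf H) := { mul_comm := hcomm.is_comm.comm }
    have hpr := IsSimpleGroup.prime_card (α := H ⧸ N.subgroupOf H)
    rw [Nat.card_congr e.toEquiv] at hpr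
    have d1 := (Nat.prime_dvd_prime_iff_eq hp0 hpr).1 (hall p0 hp0 (by omega) a3)
    have d2 := (Nat.prime_dvd_prime_iff_eq hq0 hpr).1 (hall q0 hq0 a2 (by omega))
    omega
  · rw [Nat.card_congr e.toEquiv]; exact hall q hq c1 c2

end Cfsg.Agent.H21.Sp
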