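import Mathlib
import Cfsg.Prelude.Def_KGroupFacts
import Cfsg.Agent.H21.Sp1
/-! Simple groups with a subgroup of prime index have solvable outer automorphism group. -/
set_option autoImplicit false
set_option linter.unusedSectionVars false
set_option linter.unusedVariables false
set_option linter.style.haveILetI false
namespace Cfsg.Agent.H21.PI
open Subgroup MulAction Finset

variable {G Ω : Type*} [Group G] [Finite G] [Fintype Ω] [MulAction G Ω] {p : ℕ} {x : G}

/-- `t` intertwines the action twisted by `α` with the action -/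
def Tw (α : MulAut G) (t : Ω → Ω → ℕ) : Prop := ∀ (g : G) a b, t (α g • a) (g • b) = t a b

/-- composition -/
def cv (t s : Ω → Ω → ℕ) : Ω → Ω → ℕ := fun a c => ∑ b, t a b * s b c

theorem Tw.cv {α β : MulAut G} {t s : Ω → Ω → ℕ} (h : Tw α t) (h' : Tw β s) : Tw (α * β) (cv t s) := by
  intro g a c
  refine (Fintype.sum_equiv (MulAction.toPerm (β g)) _ _ fun b => ?_).symm
  show t a b * s b c = t (α (β g) • a) (β g • b) * s (β g • b) (g • c)
  rw [h, h']

theorem col_cv {t s : Ω → Ω → ℕ} {k l : ℕ} (h : ∀ b, ∑ a, t a b = k) (h' : ∀ b, ∑ a, s a b = l) (c : Ω) :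
    ∑ a, cv t s a c = k * l := by
  simp only [cv]
  rw [Finset.sum_comm, ← h' c, Finset.mul_sum]
  exact Finset.sum_congr rfl fun b _ => by rw [← Finset.sum_mul, h]

theorem exists_tw [IsPretransitive G Ω] (α : MulAut G) (o : Ω) (hp : p.Prime)
    (h : ¬ p ∣ Nat.card (stabilizer G o)) : ∃ (t : Ω → Ω → ℕ) (k : ℕ), Tw α t ∧ (∀ b, ∑ a, t a b = k) ∧ ¬ p ∣ k := by
  classical
  let t : Ω → Ω → ℕ := fun a b => if ∃ g : G, α g • o = a ∧ g • o = b then 1 else 0
  have ht : Tw α t := fun g a b => by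
    refine if_congr ⟨?_, ?_⟩ rfl rfl
    · rintro ⟨u, h1, h2⟩
      exact ⟨g⁻¹ * u, by rw [map_mul, map_inv, mul_smul, h1, inv_smul_smul], by rw [mul_smul, h2, inv_smul_smul]⟩
    · rintro ⟨u, h1, h2⟩
      exact ⟨g * u, by rw [map_mul, mul_smul, h1], by rw [mul_smul, h2]⟩
  refine ⟨t, ∑ a, t a o, ht, fun b => ?_, ?_⟩
  · obtain ⟨g, rfl⟩ := exists_smul_eq G o b
    exact (Fintype.sum_equiv (MulAction.toPerm (α g)) _ _ fun a => (ht g a o).symm).symm
  · set K := (stabilizer G o).map α.toMonoidHom with hK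
    have h1 : ∑ a, t a o = (orbit K o).ncard := by
      simp only [t]
      rw [Finset.sum_boole, Nat.cast_id, ← Set.ncard_coe_finset]
      congr 1
      ext a
      simp only [Finset.coe_filter, Finset.mem_univ, true_and, Set.mem_ofPred_eq]
      constructor
      · rintro ⟨g, h1, h2⟩; exact ⟨⟨α g, g, h2, rfl⟩, h1⟩
      · rintro ⟨⟨_, g, h2, rfl⟩, h1⟩; exact ⟨g, h1, h2⟩
    rw [h1, ← index_stabilizer]
    intro hd
    refine h (hd.trans ((index_dvd_card _).trans ?_))
    rw [hK, card_map_of_injective α.injective]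

theorem cv_comm {t s : Ω → Ω → ℕ} {o : Ω} (e : zpowers x ≃ Ω) (he : ∀ u, e u = u.1 • o)
    (ht : ∀ u ∈ zpowers x, ∀ a b, t (u • a) (u • b) = t a b)
    (hs : ∀ u ∈ zpowers x, ∀ a b, s (u • a) (u • b) = s a b) : cv t s = cv s t := by
  have cm : ∀ u v : zpowers x, u * v = v * u := fun u v => (zpowers_isMulCommutative x).is_comm.comm u v
  haveI := Fintype.ofFinite (zpowers x)
  funext a c
  obtain ⟨a, rfl⟩ := e.surjective a
  obtain ⟨c, rfl⟩ := e.surjective c
  simp only [cv]
  rw [← e.sum_comp, ← e.sum_comp]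
  refine Fintype.sum_equiv ((Equiv.inv _).trans (Equiv.mulLeft (a * c))) _ _ fun u => ?_
  have k : ∀ u v : zpowers x, u.1 • e v = e (u * v) := fun u v => by rw [he, he, Subgroup.coe_mul, mul_smul]
  show t (e a) (e u) * s (e u) (e c) = s (e a) (e (a * c * u⁻¹)) * t (e (a * c * u⁻¹)) (e c)
  rw [← ht _ (c * u⁻¹).2, ← hs _ (a * u⁻¹).2 (e u), k, k, k, k, mul_comm (t _ _)]
  congr 3
  · group
  · rw [mul_assoc, cm _ c, mul_assoc]
  · rw [cm _ a, mul_assoc]
  · group

theorem aut_comm [FaithfulSMul G Ω] [IsPretransitive G Ω] (hp : p.Prime) (hΩ : Fintype.card Ω = p)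
    (h : ∀ o : Ω, ¬ p ∣ Nat.card (stabilizer G o)) (hx : orderOf x = p) {α β : MulAut G} (ha : α x = x)
    (hb : β x = x) : α * β = β * α := by
  classical
  obtain ⟨o⟩ : Nonempty Ω := Fintype.card_pos_iff.1 (hΩ ▸ hp.pos)
  have hc : Nat.card (zpowers x) = p := by rw [Nat.card_zpowers, hx]
  have ou : ∀ u : zpowers x, u ≠ 1 → orderOf u.1 = p := fun u hu => by
    have := orderOf_dvd_natCard u
    rw [hc] at this
    rw [orderOf_coe]
    exact ((Nat.dvd_prime hp).1 this).resolve_left fun e => hu (orderOf_eq_one_iff.1 e)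
  have hf : ∀ (u : zpowers x) (a : Ω), u.1 • a = a → u = 1 := fun u a e => by
    by_contra hu
    exact h a (ou u hu ▸ (stabilizer G a).orderOf_dvd_natCard e)
  have hb' : ∀ a : Ω, Function.Bijective fun u : zpowers x => u.1 • a := fun a =>
    (Nat.bijective_iff_injective_and_card _).2 ⟨fun u v e => by
      have := hf (v⁻¹ * u) a (by
        rw [Subgroup.coe_mul, Subgroup.coe_inv, mul_smul, inv_smul_eq_iff]; exact e)
      exact (inv_mul_eq_one.1 this).symm, by rw [hc, Nat.card_eq_fintype_card, hΩ]⟩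
  have fx : ∀ γ : MulAut G, γ x = x → ∀ u ∈ zpowers x, γ u = u := by
    rintro γ hγ _ ⟨n, rfl⟩
    rw [map_zpow, hγ]
  obtain ⟨t, k, t1, t2, t3⟩ := exists_tw α o hp (h o)
  obtain ⟨s, l, s1, s2, s3⟩ := exists_tw β o hp (h o)
  have t4 : ∀ u ∈ zpowers x, ∀ a b, t (u • a) (u • b) = t a b := fun u hu a b => by
    rw [← t1 u a b, fx α ha u hu]
  have s4 : ∀ u ∈ zpowers x, ∀ a b, s (u • a) (u • b) = s a b := fun u hu a b => by
    rw [← s1 u a b, fx β hb u hu]
  have hcm := cv_comm (Equiv.ofBijective _ (hb' o)) (fun _ => rfl) t4 s4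
  have u1 := t1.cv s1
  have u2 := s1.cv t1
  rw [← hcm] at u2
  have u3 := col_cv t2 s2
  set U := cv t s
  have u4 : ∀ u ∈ zpowers x, ∀ a b, U (u • a) (u • b) = U a b := fun u hu a b => by
    rw [← u1 u a b, fx (α * β) (by rw [MulAut.mul_apply, hb, ha]) u hu]
  refine MulEquiv.ext fun g => eq_of_smul_eq_smul (α := Ω) fun a => ?_
  by_contra hne
  set a1 := (α * β) g • a
  obtain ⟨w, hw⟩ := (hb' a1).2 ((β * α) g • a)
  have hw1 : w ≠ 1 := by
    rintro rfl
    exact hne (by simpa using hw)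
  have r1 : ∀ c, U (w.1 • a1) c = U a1 c := fun c => by
    have e : w.1 • a1 = (β * α) g • a := hw
    rw [e, ← smul_inv_smul g c, u1, u2]
  have r2 : ∀ (n : ℕ) c, U (w.1 ^ n • a1) c = U a1 c := by
    intro n
    induction n with
    | zero => simp
    | succ n ih =>
      intro c
      rw [pow_succ, mul_smul, ← smul_inv_smul (w.1 ^ n) c, u4 _ (pow_mem w.2 n), r1,
        ← u4 _ (pow_mem w.2 n), ih]
  have r3 : ∀ b, U b o = U a1 o := fun b => by
    obtain ⟨v, rfl⟩ := (hb' a1).2 b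
    have : zpowers w.1 = zpowers x :=
      eq_of_le_of_card_ge (zpowers_le.2 w.2) (by rw [hc, Nat.card_zpowers, ou w hw1])
    obtain ⟨n, hn⟩ := mem_powers_iff_mem_zpowers.2 (show v.1 ∈ zpowers w.1 by rw [this]; exact v.2)
    show U (v.1 • a1) o = _
    rw [← hn]; exact r2 n o
  have := u3 o
  rw [Finset.sum_congr rfl fun b _ => r3 b, Finset.sum_const, Finset.card_univ, hΩ, smul_eq_mul] at this
  exact (hp.dvd_mul.1 (this ▸ Dvd.intro _ rfl)).elim t3 s3

theorem s4277 [IsSimpleGroup G] (H : Subgroup G) (hH : H.index.Prime) : Group.IsSolvable (Cfsg.Out G) := by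
  classical
  by_cases hab : IsMulCommutative G
  · haveI : IsCyclic G := by
      letI : CommGroup G := { mul_comm := hab.is_comm.comm }
      infer_instance
    haveI : Group.IsSolvable (MulAut G) := Group.isSolvable_of_comm fun a b =>
      (IsCyclic.mulAutMulEquiv G).injective (by rw [map_mul, map_mul, mul_comm])
    infer_instance
  set p := H.index with hp
  haveI := Fact.mk hH
  haveI := Fintype.ofFinite (G ⧸ H)
  have hΩ : Fintype.card (G ⧸ H) = p := by rw [← Nat.card_eq_fintype_card]; rfl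
  have hk : (toPermHom G (G ⧸ H)).ker = ⊥ := by
    rw [← normalCore_eq_ker]
    refine (H.normalCore_normal.eq_bot_or_eq_top).resolve_right fun e => ?_
    have : H = ⊤ := top_le_iff.1 (e ▸ H.normalCore_le)
    rw [this, index_top] at hp
    exact hH.one_lt.ne' hp
  have hinj := (MonoidHom.ker_eq_bot_iff _).1 hk
  haveI : FaithfulSMul G (G ⧸ H) := ⟨fun {a b} e => hinj (Equiv.ext e)⟩
  have h2 : ¬ p ^ 2 ∣ Nat.card G := fun e => by
    have := card_dvd_of_injective _ hinj
    rw [Nat.card_perm, Nat.card_eq_fintype_card (α := G ⧸ H), hΩ] at this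
    exact Sp.not_sq_dvd_factorial hH (by have := hH.pos; omega) (e.trans this)
  have h3 : ∀ o : G ⧸ H, ¬ p ∣ Nat.card (stabilizer G o) := fun o e => h2 (by
    rw [← (stabilizer G o).card_mul_index, index_stabilizer_of_transitive, pow_two]
    exact Nat.mul_dvd_mul e dvd_rfl)
  obtain ⟨P⟩ : Nonempty (Sylow p G) := inferInstance
  have hP := Sp.card_sylow_eq P H.index_dvd_card h2
  haveI : IsCyclic P := isCyclic_of_prime_card hP
  obtain ⟨x, hx⟩ := exists_prime_orderOf_dvd_card' (G := P) p (by rw [hP])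
  have hx' : orderOf (x : G) = p := by rw [orderOf_coe, hx]
  let N := stabilizer (MulAut G) P
  have hN : ∀ α ∈ N, ∀ y ∈ (P : Subgroup G), α y ∈ (P : Subgroup G) := fun α h y hy => by
    have e : α • P = P := h
    rw [← e]
    exact ⟨y, hy, rfl⟩
  let ψ : N →* MulAut P :=
    { toFun := fun α =>
        { toFun := fun y => ⟨α.1 y, hN _ α.2 _ y.2⟩
          invFun := fun y => ⟨α.1⁻¹ y, hN _ (inv_mem α.2) _ y.2⟩
          left_inv := fun y => Subtype.ext (by simp)
          right_inv := fun y => Subtype.ext (by simp)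
          map_mul' := fun y z => Subtype.ext (map_mul α.1 _ _) }
      map_one' := rfl
      map_mul' := fun _ _ => rfl }
  haveI : Group.IsSolvable (MulAut P) := Group.isSolvable_of_comm fun a b =>
    (IsCyclic.mulAutMulEquiv P).injective (by rw [map_mul, map_mul, mul_comm])
  haveI : Group.IsSolvable ψ.ker := Group.isSolvable_of_comm fun a b => Subtype.ext (Subtype.ext
    (aut_comm hH hΩ h3 hx' (congrArg (fun f : MulAut P => ((f x : P) : G)) a.2)
      (congrArg (fun f : MulAut P => ((f x : P) : G)) b.2)))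
  haveI : Group.IsSolvable N := Group.isSolvable_of_ker_le_range ψ.ker.subtype ψ (by simp)
  refine Group.isSolvable_of_surjective (f := (QuotientGroup.mk' (Cfsg.Inn G)).comp N.subtype) fun q => ?_
  obtain ⟨α, rfl⟩ := QuotientGroup.mk'_surjective _ q
  obtain ⟨g, hg⟩ := exists_smul_eq G P (α⁻¹ • P)
  refine ⟨⟨α * MulAut.conj g, ?_⟩, ?_⟩
  · show (α * MulAut.conj g) • P = P
    rw [mul_smul, show MulAut.conj g • P = g • P from rfl, hg, smul_inv_smul]
  · exact QuotientGroup.mk_mul_of_mem α ⟨g, rfl⟩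

end Cfsg.Agent.H21.PI
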