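import Mathlib
import Cfsg.Agent.H7.Rv0
import Cfsg.Agent.H7.Rv4

/-! Subgroups of order `20480` are point stabilisers. -/

set_option autoImplicit false
namespace Cfsg.Agent.H7.Rv
open Cfsg.Agent.H14 MulAction

theorem stabB {H X : Type*} [Group H] [Finite H] [MulAction H X] (hH : Nat.card H = 35942400)
    (x : X) (hx : (orbit H x).ncard = 1755) (r : ℕ → X)
    (hp : ∀ y ∈ orbit H x, y = x ∨ ∃ i < 4, y ∈ orbit (stabilizer H x) (r i))
    (c0 : (orbit (stabilizer H x) (r 0)).ncard = 10) (c1 : (orbit (stabilizer H x) (r 1)).ncard = 80)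
    (c2 : (orbit (stabilizer H x) (r 2)).ncard = 640) (c3 : (orbit (stabilizer H x) (r 3)).ncard = 1024)
    (t : H) (ht : t • r 0 = x) (z : X)
    (hz : ∀ y ∈ orbit (stabilizer H x) (r 0), t • y ∈ orbit (stabilizer H x) (r 0) → y = z)
    {K : Subgroup H} (hK : Nat.card K = 20480) : ∃ u : H, K = stabilizer H (u • x) := by
  have cx : Nat.card (stabilizer H x) = 20480 := by
    have h := Nat.card_congr (orbitProdStabilizerEquivGroup H x)
    rw [Nat.card_prod, Nat.card_coe_set_eq, hx, hH] at h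
    omega
  have key {K S : Subgroup H} (hK : Nat.card K = 20480) (hS : Nat.card S = 2 ^ 12) (h1 : S ≤ K)
      (h2 : S ≤ stabilizer H x) : K = stabilizer H x := by
    have a1 := card_eq_orbit_mul_inf K x
    obtain ⟨n, a2⟩ := Subgroup.card_dvd_of_le (le_inf h1 h2)
    have a3 : (orbit K x).ncard ∣ 5 := ⟨n, by rw [hK, a2, hS] at a1; nlinarith⟩
    have fin : (orbit K x).Finite := Set.finite_range _
    have a5 (k : H) (hk : k ∈ K) (q) (hq : q ∈ orbit K x) : k • q ∈ orbit K x := by
      obtain ⟨l, rfl⟩ := hq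
      exact ⟨⟨k, hk⟩ * l, mul_smul _ _ _⟩
    have a6 (q) (hq : q ∈ orbit K x) (h0 : q ≠ x) : q ∈ orbit (stabilizer H x) (r 0) := by
      have b5 := card_eq_orbit_mul_inf S q
      have b6 : (orbit S q).ncard ≤ (orbit K x \ {x}).ncard := Set.ncard_le_ncard (by
        rintro _ ⟨s, rfl⟩
        refine ⟨a5 _ (h1 s.2) q hq, fun e => h0 ?_⟩
        have e : (s : H) • q = x := e
        exact MulAction.injective (s : H) (e.trans (show (s : H) • x = x from h2 s.2).symm)) (fin.subset Set.diff_subset)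
      rw [Set.ncard_diff_singleton_of_mem (mem_orbit_self x)] at b6
      have b7 := Nat.le_of_dvd (by norm_num) a3
      have b2 := Subgroup.card_le_of_le (inf_le_inf_right (stabilizer H q) h2)
      have b1 := card_eq_orbit_mul_inf (stabilizer H x) q
      have b3 : 1024 ≤ Nat.card ↥(stabilizer H x ⊓ stabilizer H q) := by
        have := Nat.mul_le_mul (show (orbit S q).ncard ≤ 4 by omega) b2
        omega
      obtain e | ⟨i, hi, e⟩ := hp q (let ⟨l, e⟩ := hq; ⟨l.1, e⟩)
      · exact absurd e h0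
      rw [orbit_eq_iff.2 e, cx] at b1
      interval_cases i
      · exact e
      · rw [c1] at b1; omega
      · rw [c2] at b1; omega
      · rw [c3] at b1; omega
    refine Subgroup.eq_of_le_of_card_ge (fun k hk => ?_) (by rw [hK, cx])
    by_contra hc
    have hq : k • x ∈ orbit K x := ⟨⟨k, hk⟩, rfl⟩
    obtain ⟨s, hs⟩ := a6 _ hq hc
    have hs : (s : H) • r 0 = k • x := hs
    have b2 : (orbit K x).ncard ≤ 3 := by
      refine (Set.ncard_le_ncard (t := {x, k • x, (s : H) • z}) fun y hy => ?_).trans 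
        ((Set.ncard_insert_le _ _).trans (Nat.succ_le_succ (Set.ncard_insert_le _ _ |>.trans (by simp))))
      by_cases r0 : y = x
      · exact Or.inl r0
      by_cases r1 : y = k • x
      · exact Or.inr (Or.inl r1)
      refine Or.inr (Or.inr ?_)
      obtain ⟨a, ha⟩ := a6 y hy r0
      obtain ⟨b, hb⟩ := a6 _ (a5 _ (inv_mem hk) y hy) fun e => r1 (inv_smul_eq_iff.1 e)
      have ha : (a : H) • r 0 = y := ha
      have hb : (b : H) • r 0 = k⁻¹ • y := hb
      have g : t * (s : H)⁻¹ * k ∈ stabilizer H x := by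
        rw [mem_stabilizer_iff, mul_smul, mul_smul, ← hs, inv_smul_smul, ht]
      have := hz ((s : H)⁻¹ • y) ⟨s⁻¹ * a, by rw [← ha, ← mul_smul]; rfl⟩
        ⟨⟨_, g⟩ * b, by
          show (t * (s : H)⁻¹ * k * b) • r 0 = _
          rw [mul_smul, hb, mul_smul, mul_smul, smul_inv_smul]⟩
      exact inv_smul_eq_iff.1 this
    have b3 : 2 ≤ (orbit K x).ncard := (Set.one_lt_ncard fin).2 ⟨_, hq, _, mem_orbit_self x, hc⟩
    obtain e | e := (Nat.dvd_prime (by norm_num)).1 a3 <;> omega
  haveI : Fact (Nat.Prime 2) := ⟨by norm_num⟩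
  obtain ⟨S, hS, hS'⟩ : ∃ S ≤ K, Nat.card S = 2 ^ 12 := by
    obtain ⟨S, h⟩ := Sylow.exists_subgroup_card_pow_prime (G := K) 2 (n := 12) (by rw [hK]; norm_num)
    exact ⟨S.map (Subgroup.subtype _), Subgroup.map_subtype_le _,
      (Subgroup.card_map_of_injective Subtype.val_injective).trans h⟩
  let D : SubMulAction H X := ⟨orbit H x, fun h _ ⟨k, e⟩ => ⟨h * k, by rw [← e]; exact mul_smul _ _ _⟩⟩
  have : Finite D := (Set.finite_range _ : (orbit H x).Finite)
  obtain ⟨p, hp⟩ := (IsPGroup.of_card hS').nonempty_fixed_point_of_prime_not_dvd_card D (by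
    rw [show Nat.card D = 1755 from (Nat.card_coe_set_eq _).trans hx]; norm_num)
  obtain ⟨u, hu⟩ : (p : X) ∈ orbit H x := p.2
  have hu : u • x = p := hu
  have e := key (K := K.map (MulAut.conj u⁻¹).toMonoidHom) (S := S.map (MulAut.conj u⁻¹).toMonoidHom)
    ((Subgroup.card_map_of_injective (MulAut.conj u⁻¹).injective).trans hK)
    ((Subgroup.card_map_of_injective (MulAut.conj u⁻¹).injective).trans hS') (Subgroup.map_mono hS) (by
      rintro _ ⟨y, hy, rfl⟩
      have : y • (p : X) = p := congrArg Subtype.val (hp ⟨y, hy⟩)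
      simp [mul_smul, hu, this, inv_smul_eq_iff])
  refine ⟨u, Subgroup.ext fun k => ?_⟩
  rw [← Subgroup.mem_map_iff_mem (f := (MulAut.conj u⁻¹).toMonoidHom) (MulAut.conj u⁻¹).injective, e]
  simp [mul_smul, inv_smul_eq_iff]

end Cfsg.Agent.H7.Rv
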